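import Mathlib
import Cfsg.Agent.Lib.Helper12.OElmE.Defs
import Cfsg.Agent.Lib.Helper65.PHyp.ASolve

/-!
# OELM (S5990), regime [R2E], package [APLUS]: a-type on a plus-type space, invariant hyperbolic
`m₁`-spaces (same arithmetic as helper65's [ASOLVE]; the elliptic plane alternative is excluded
because `V` is of plus type).
-/

set_option autoImplicit false

namespace Cfsg.Agent.Lib.Helper34.OElmE

open Cfsg.Agent.Lib.Helper23.OHyp Cfsg.Agent.Lib.Helper44.OElp Cfsg.Agent.Lib.Helper12.PHyp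
  Cfsg.Agent.Lib.Helper12.OElmE Cfsg.Agent.Lib.Helper65.PHyp

universe u

/-- **[APLUS]** -/
theorem pkgAPlus_of (hADec : Cfsg.Agent.Lib.Helper12.PHyp.PkgADec.{u})
    (hG : Cfsg.Agent.Lib.Helper12.PHyp.PkgGeom2.{u})
    (hSP : Cfsg.Agent.Lib.Helper12.PHyp.PkgSumPlus.{u})
    (hSumE : Cfsg.Agent.Lib.Helper44.OElp.PkgSumE.{u})
    (hE : Cfsg.Agent.Lib.Helper12.PHyp.PkgNdEven.{u}) : PkgAPlus.{u} := by
  intro F _ _ ι _ _ Q x hStd V hInv hNd hA hVplus m hmev hm hcase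
  have hQ := hStd.nondeg
  obtain ⟨s2, V', hV'V, hV'fix, hV'nd, hfr, hW⟩ := hADec F ι Q x hStd V hInv hNd hA
  have he' : Even (Module.finrank F V') := hE F ι Q hQ hStd.two V' hV'nd
  -- gluing a block part and a pointwise fixed part
  have glue : ∀ t : ℕ, t ≤ s2 → ∀ W0 : Submodule F (ι → F), W0 ≤ V' → Nd Q W0 → Plus Q W0 →
      ∀ n : ℕ, n = 4 * t + Module.finrank F W0 → HypIn Q x V n := by
    intro t ht W0 hW0 hW0nd hW0plus n hn
    obtain ⟨WA, h1, h2, h3, h4, h5, h6⟩ := hW t ht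
    have hperp : Perp Q WA W0 := fun u hu v hv => h6 u hu v (hW0 hv)
    obtain ⟨hnd, hplus, hfrs⟩ := hSP F ι Q hQ WA W0 h3 hW0nd hperp h4 hW0plus
    unfold HypIn
    exact ⟨WA ⊔ W0, sup_le h1 (hW0.trans hV'V), Cfsg.Agent.Lib.Helper12.PHyp.inv_sup h2 (inv_of_le_fixSp (hW0.trans hV'fix)),
      hnd, hplus, by rw [hfrs, hn, h5]⟩
  have hbot : Module.finrank F (⊥ : Submodule F (ι → F)) = 0 := by simp
  obtain ⟨ke, hke⟩ := he'
  obtain ⟨km, hkm⟩ := hmev
  by_cases hm4 : m % 4 = 0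
  · by_cases hle : m ≤ 4 * s2
    · exact glue (m / 4) (by omega) ⊥ bot_le (nd_bot Q) (plus_bot hQ) m (by rw [hbot]; omega)
    · obtain ⟨W0, hW0, hW0nd, hW0plus, hW0fr⟩ :=
        hG F ι Q hQ hStd.two V' hV'nd (m - 4 * s2) ⟨(m - 4 * s2) / 2, by omega⟩ (by omega)
      exact glue s2 (le_refl _) W0 hW0 hW0nd hW0plus m (by rw [hW0fr]; omega)
  · have hm2 : m % 4 = 2 := by omega
    have hV2 : Module.finrank F V % 4 = 2 := by
      rcases hcase with h | h
      · exact absurd h hm4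
      · exact h
    have hkepos : 0 < ke := by omega
    by_cases hke1 : ke = 1
    · -- `dim V' = 2`: `V'` is of plus type since `V` is
      have hP : Plus Q V' := by
        obtain ⟨WA, h1, h2, h3, h4, h5, h6⟩ := hW s2 (le_refl _)
        obtain ⟨-, hfrs, hplus⟩ := hSumE F ι Q hQ WA V' h3 hV'nd h6
        have hsupV : WA ⊔ V' = V := by
          apply Submodule.eq_of_le_of_finrank_le (sup_le h1 hV'V)
          rw [hfrs, h5, hfr]
        have heA : Even (Module.finrank F WA) := ⟨2 * s2, by omega⟩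
        have heV' : Even (Module.finrank F V') := ⟨ke, hke⟩
        have h7 := (hplus heA heV').mp (by rw [hsupV]; exact hVplus)
        exact h7.mp h4
      exact glue ((m - 2) / 4) (by omega) V' (le_refl _) hV'nd hP m (by omega)
    · -- `dim V' ≥ 4`
      by_cases hle : m - 2 ≤ 4 * s2
      · obtain ⟨W0, hW0, hW0nd, hW0plus, hW0fr⟩ :=
          hG F ι Q hQ hStd.two V' hV'nd 2 ⟨1, rfl⟩ (by omega)
        exact glue ((m - 2) / 4) (by omega) W0 hW0 hW0nd hW0plus m (by rw [hW0fr]; omega)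
      · obtain ⟨W0, hW0, hW0nd, hW0plus, hW0fr⟩ :=
          hG F ι Q hQ hStd.two V' hV'nd (m - 4 * s2) ⟨(m - 4 * s2) / 2, by omega⟩ (by omega)
        exact glue s2 (le_refl _) W0 hW0 hW0nd hW0plus m (by rw [hW0fr]; omega)

end Cfsg.Agent.Lib.Helper34.OElmE
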