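import Mathlib
import Cfsg.Agent.Lib.Helper12.OElmE.Defs

/-!
# OELM (S5990), regime [R2E], package [DUAL]: the orthogonal complement (inside a non-plus `V`)
of an invariant hyperbolic subspace is an invariant elliptic subspace.
-/

set_option autoImplicit false

namespace Cfsg.Agent.Lib.Helper34.OElmE

open Cfsg.Agent.Lib.Helper23.OHyp Cfsg.Agent.Lib.Helper44.OElp Cfsg.Agent.Lib.Helper12.PHyp
  Cfsg.Agent.Lib.Helper12.OElmE

universe u

/-- **[DUAL]** -/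
theorem pkgDual_of (hPerp : Cfsg.Agent.Lib.Helper23.OHyp.PkgPerp.{u})
    (hSumE : Cfsg.Agent.Lib.Helper44.OElp.PkgSumE.{u})
    (hE : Cfsg.Agent.Lib.Helper12.PHyp.PkgNdEven.{u}) : PkgDual.{u} := by
  intro F _ _ ι _ _ Q x hStd V hInv hNd hnP m' hHyp
  obtain ⟨W1, hW1V, hW1inv, hW1nd, hW1plus, hW1fr⟩ := hHyp
  have hQ := hStd.nondeg
  obtain ⟨W2, hW2V, hW2inv, hW2nd, hperp, hsup, hfr⟩ :=
    hPerp F ι Q hQ x hStd.isom hStd.det V W1 hW1V hInv hW1inv hNd hW1nd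
  obtain ⟨-, -, hplus⟩ := hSumE F ι Q hQ W1 W2 hW1nd hW2nd hperp
  have he1 : Even (Module.finrank F W1) := hE F ι Q hQ hStd.two W1 hW1nd
  have he2 : Even (Module.finrank F W2) := hE F ι Q hQ hStd.two W2 hW2nd
  refine ⟨W2, hW2V, hW2inv, hW2nd, ?_, by omega⟩
  intro hW2plus
  apply hnP
  rw [← hsup]
  exact (hplus he1 he2).mpr ⟨fun _ => hW2plus, fun _ => hW1plus⟩

end Cfsg.Agent.Lib.Helper34.OElmE
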